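import Cfsg.Agent.Lib.FusionSub.MathieuCert

/-! Certificate for the `2`-fusion system of `M11`. -/

set_option autoImplicit false
set_option maxRecDepth 100000

namespace CfsgLib.FusionSub.Mathieu

/-- Certificate. -/
def certM11 : SylCert where
  sets := [1, 340831]
  gens := [901810639927700045894952958619290176, 636355017635266933539822988605723200, 901803286448115792772728721502212480, 849406600603277143616033905839575296]
  order := [12, 14, 6, 3, 9, 10, 2, 7, 13, 15, 8, 11, 4, 1, 5, 0]
  tree := (.node (.node (.node (.node (.node .nil 230549798017816199868044967694862592 .nil) 230559625559914451153959475831443968 .nil) 304364985686358349374404567652043136 (.node .nil 304383412539821291079733571624636448 .nil)) 475916254394719360866759678257172576 (.node (.node .nil 475935900039457900171905226626173440 .nil) 636355017635266933539822988605723200 (.node .nil 636364855428630410929860754329307552 .nil))) 811508924463099082907868030575380576 (.node (.node (.node .nil 811526126413331514917245317902536896 .nil) 849406600603277143616033905839575296 (.node .nil 849413984450869287606180152942692544 .nil)) 901803286448115792772728721502212480 (.node (.node .nil 901810639927700045894952958619290176 .nil) 984817008955239316910482038318174624 (.node .nil 984818244535754528103549039458486304 .nil))))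
  z := 901810639927700045894952958619290176
  ops := [.conj 236721353683679186710966488233550976 0 984817008955239316910482038318174624,
    .conj 894676897890766308089450163655091328 0 636355017635266933539822988605723200,
    .mul 2 1,
    .conj 313471754031247004509045584409338912 3 230549798017816199868044967694862592,
    .mul 3 2,
    .mul 4 0,
    .mul 6 2]
  x := 0
  sizesP := [1, 2, 4, 8]
  sizesX := [1, 2, 4, 8]
  levels := [(2, [], [475935900039457900171905226626173440, 304383412539821291079733571624636448]),
    (10, [], [901810639927700045894952958619290176, 811508924463099082907868030575380576, 475935900039457900171905226626173440, 636364855428630410929860754329307552]),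
    (12, [11669008, 5409412, 5405696, 1161408, 11548936], [984818244535754528103549039458486304, 901810639927700045894952958619290176])]
  final := [5405696, 10021376, 10170384, 2019456, 4038912, 15515712, 7221256]

theorem certM11_els : certM11.elsOK = true := by decide +kernel

theorem certM11_center : certM11.centerOK = true := by decide +kernel

theorem certM11_closure : certM11.closureOK = true := by decide +kernel

theorem certM11_norm : certM11.normOK = true := by decide +kernel

end CfsgLib.FusionSub.Mathieu
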