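import Cfsg.Agent.S5160
import Cfsg.Agent.Lib.FusionSub.GroupSimple
import Cfsg.Agent.Lib.Cores.PCore

/-!
Simplicity of the fusion system of a group with two radical subgroups, given through a central
extension by a group of order prime to `p`.
-/

set_option autoImplicit false
set_option linter.style.haveILetI false
set_option linter.unusedSectionVars false

namespace CfsgLib.FusionSub

open Cfsg Cfsg.FusionSystem CfsgLib.Alperin

variable {p : ℕ} [Fact p.Prime]

/-- The subgroup generated by the `p`-elements of the normalizer. -/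
def pNormGen {G : Type*} [Group G] (p : ℕ) (R : Subgroup G) : Subgroup G :=
  Subgroup.closure {g : G | g ∈ Subgroup.normalizer (R : Set G) ∧ ∃ k : ℕ, orderOf g = p ^ k}

theorem mem_pNormGen {G : Type*} [Group G] {R : Subgroup G} {g : G}
    (hg : g ∈ Subgroup.normalizer (R : Set G)) {k : ℕ} (hk : g ^ p ^ k = 1) : g ∈ pNormGen p R := by
  obtain ⟨j, -, hj⟩ := (Nat.dvd_prime_pow Fact.out).1 (orderOf_dvd_of_pow_eq_one hk)
  exact Subgroup.subset_closure ⟨hg, j, hj⟩

/-- A normal subgroup of `S` containing its centralizer, with `S` meeting some conjugate of itself under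
the normalizer inside it, is fully normalized, radical and centric. -/
theorem good_radical {G : Type*} [Group G] [Finite G] (S : Sylow p G) {R : Subgroup G}
    (hRS : R ≤ S) (hSR : (S : Subgroup G) ≤ Subgroup.normalizer (R : Set G))
    (hC : Subgroup.centralizer (R : Set G) ≤ R) {w : G} (hw : w ∈ Subgroup.normalizer (R : Set G))
    (hint : ∀ x ∈ (S : Subgroup G), w * x * w⁻¹ ∈ (S : Subgroup G) → x ∈ R) :
    (groupFusionSystem (S : Subgroup G)).IsFullyNormalized R ∧
      (groupFusionSystem (S : Subgroup G)).IsRadical p R ∧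
      (groupFusionSystem (S : Subgroup G)).IsCentric R := by
  set F := groupFusionSystem (S : Subgroup G)
  have hF : F.IsSaturated p := FusionBasics.group_isSaturated S
  set N := Subgroup.normalizer (R : Set G)
  have hfn : F.IsFullyNormalized R := by
    refine (FusionBasics.group_isFullyNormalized_iff S hRS).mpr ⟨S.subtype hSR, ?_⟩
    rw [Sylow.coe_subtype]
    congr 1
    exact (inf_eq_left.mpr hSR).symm
  have hcent : F.IsCentric R := isCentric_of_fullyCentralized S.2 hF
    (FusionBasics.group_fullyCentralized_of_fullyNormalized S hfn) (inf_le_right.trans hC)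
  refine ⟨hfn, ⟨hRS, ?_⟩, hcent⟩
  haveI := finite_autGroup F hRS
  set A := F.autGroup R with hA
  have hmem : ∀ g : N, R.normalizerMonoidHom g ∈ A := fun g => by
    rw [hA, FusionBasics.group_autGroup hRS]
    exact conjAut_mem (Subgroup.mem_top (g : G)) g.2
  let π : N →* A := R.normalizerMonoidHom.codRestrict A hmem
  have hπs : Function.Surjective π := by
    rintro ⟨α, hα⟩
    rw [hA, FusionBasics.group_autGroup hRS] at hα
    obtain ⟨g, -, hg⟩ := mem_autInducedBy_iff.mp hα
    exact ⟨⟨g, normalizer_of_induced hg⟩, Subtype.ext (MulEquiv.ext fun x => Subtype.ext (hg x).symm)⟩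
  let T : Sylow p A := (S.subtype hSR).mapSurjective hπs
  have hcoreT : pCore p A ≤ (T : Subgroup A) :=
    IsPGroup.le_sylow_of_normal (CfsgLib.Cores.isPGroup_pCore p A) T
  have hI : Inn R ≤ A := inn_le_autGroup F hRS
  refine le_antisymm ?_ ?_
  · rintro _ ⟨a, ha, rfl⟩
    obtain ⟨s, hs, hsa⟩ := hcoreT ha
    have hb : π ⟨w, hw⟩ * a * (π ⟨w, hw⟩)⁻¹ ∈ pCore p A :=
      (inferInstance : (pCore p A).Normal).conj_mem a ha _
    obtain ⟨s', hs', hs'b⟩ := hcoreT hb
    have hker : (s' : N)⁻¹ * (⟨w, hw⟩ * s * ⟨w, hw⟩⁻¹) ∈ π.ker := by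
      rw [MonoidHom.mem_ker, map_mul, map_inv, map_mul, map_mul, map_inv, hsa, hs'b, inv_mul_cancel]
    have hcR : ((s' : N) : G)⁻¹ * (w * (s : G) * w⁻¹) ∈ R := by
      refine hC (Subgroup.mem_centralizer_iff.mpr fun x hx => ?_)
      have h1 := congrArg (fun α : A => (((α : MulAut R) ⟨x, hx⟩ : R) : G)) hker
      exact (mul_inv_eq_iff_eq_mul.mp h1).symm
    have hwS : w * (s : G) * w⁻¹ ∈ (S : Subgroup G) := by
      have := (S : Subgroup G).mul_mem (show ((s' : N) : G) ∈ (S : Subgroup G) from hs') (hRS hcR)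
      rwa [mul_inv_cancel_left] at this
    have hsR : (s : G) ∈ R := hint _ hs hwS
    rw [← hsa]
    exact ⟨⟨(s : G), hsR⟩, MulEquiv.ext fun x => Subtype.ext rfl⟩
  · intro α hα
    refine ⟨⟨α, hI hα⟩, ?_, rfl⟩
    have hn : ((Inn R).subgroupOf A).Normal := Subgroup.Normal.subgroupOf inferInstance A
    refine (le_sSup ⟨hn, ?_⟩ : (Inn R).subgroupOf A ≤ pCore p A) hα
    exact ((isPGroup_of_le S.2 hRS).of_surjective MulAut.conj.rangeRestrict
      MulAut.conj.rangeRestrict_surjective).comap_of_injective A.subtype Subtype.val_injective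

/-- Simplicity from two radical subgroups of a central extension. -/
theorem isSimple_of_cover {H G : Type*} [Group H] [Finite H] [Group G] [Finite G] (π : H →* G)
    (hπ : Function.Surjective π)
    (hker : ∀ z ∈ π.ker, z ∈ Subgroup.center H ∧ (orderOf z).Coprime p)
    (U : Subgroup H) (hU : IsPGroup p U) (hU1 : U ≠ ⊥) (S : Sylow p G)
    (hS : (S : Subgroup G) = U.map π) (hsc : NoStronglyClosed U) (R : Fin 2 → Subgroup H)
    (hRU : ∀ i, R i ≤ U) (hUR : ∀ i, U ≤ Subgroup.normalizer (R i : Set H))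
    (hC : ∀ i g, (∀ r ∈ R i, g * r = r * g) → ∃ z ∈ π.ker, g * z ∈ R i)
    (hw : ∀ i, ∃ w ∈ Subgroup.normalizer (R i : Set H), ∀ u ∈ U, w * u * w⁻¹ ∈ U → u ∈ R i)
    (hgen : ∀ n ∈ Subgroup.normalizer (U : Set H),
      ∃ a ∈ pNormGen p (R 0), ∃ b ∈ pNormGen p (R 1),
        a ∈ Subgroup.normalizer (U : Set H) ∧ b ∈ Subgroup.normalizer (U : Set H) ∧ n = b * a) :
    (groupFusionSystem (S : Subgroup G)).IsSimple p := by
  classical
  have hpin : ∀ x y z : H, (∃ k, x ^ p ^ k = 1) → (∃ k, y ^ p ^ k = 1) → z ∈ π.ker → x = y * z → z = 1 := by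
    rintro x y z ⟨k, hk⟩ ⟨l, hl⟩ hz rfl
    obtain ⟨hzc, hcop⟩ := hker z hz
    have hc : Commute y z := Subgroup.mem_center_iff.mp hzc y
    have h1 : (y * z) ^ p ^ (k + l) = 1 := by rw [pow_add, pow_mul, hk, one_pow]
    have h2 : y ^ p ^ (k + l) = 1 := by rw [pow_add, mul_comm, pow_mul, hl, one_pow]
    rw [hc.mul_pow, h2, one_mul] at h1
    exact orderOf_eq_one_iff.mp
      (Nat.eq_one_of_dvd_coprimes (hcop.pow_right (k + l)) dvd_rfl (orderOf_dvd_of_pow_eq_one h1))
  have hpow : ∀ u ∈ U, ∃ k, u ^ p ^ k = 1 := fun u hu => by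
    obtain ⟨k, hk⟩ := hU ⟨u, hu⟩
    exact ⟨k, congrArg Subtype.val hk⟩
  have hconj : ∀ g : H, ∀ x, (∃ k, x ^ p ^ k = 1) → ∃ k, (g * x * g⁻¹) ^ p ^ k = 1 := by
    rintro g x ⟨k, hk⟩
    exact ⟨k, by rw [conj_pow, hk, mul_one, mul_inv_cancel]⟩
  -- a `p`-element whose image lies in the image of a subgroup of `U` lies in it
  have hlift : ∀ (K : Subgroup H), K ≤ U → ∀ x : H, (∃ k, x ^ p ^ k = 1) → π x ∈ K.map π → x ∈ K := by
    intro K hK x hx hxK
    obtain ⟨u, hu, hux⟩ := hxK
    have hz : u⁻¹ * x ∈ π.ker := by rw [MonoidHom.mem_ker, map_mul, map_inv, hux, inv_mul_cancel]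
    have h1 := hpin x u _ hx (hpow u (hK hu)) hz (mul_inv_cancel_left u x).symm
    rw [inv_mul_eq_one] at h1
    exact h1 ▸ hu
  have hnorm : ∀ (K : Subgroup H), K ≤ U → ∀ g : H,
      π g ∈ Subgroup.normalizer ((K.map π : Subgroup G) : Set G) → g ∈ Subgroup.normalizer (K : Set H) := by
    intro K hK g hg
    refine Subgroup.mem_normalizer_fintype fun u hu => ?_
    refine hlift K hK _ (hconj g u (hpow u (hK hu))) ?_
    rw [map_mul, map_mul, map_inv]
    exact (Subgroup.mem_normalizer_iff.mp hg (π u)).mp ⟨u, hu, rfl⟩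
  have hmapn : ∀ (K : Subgroup H), ∀ g ∈ Subgroup.normalizer (K : Set H),
      π g ∈ Subgroup.normalizer ((K.map π : Subgroup G) : Set G) :=
    fun K g hg => Subgroup.le_normalizer_map π ⟨g, hg, rfl⟩
  refine Cfsg.Agent.S5160.result p S (fun hb => hU1 ?_) (fun T hT => ?_) ?_
  · refine (Subgroup.eq_bot_iff_forall _).mpr fun u hu => hlift ⊥ bot_le u (hpow u hu) ?_
    rw [Subgroup.map_bot]
    exact hb.le (hS.ge ⟨u, hu, rfl⟩)
  · -- strongly closed subgroups
    have hTS : T ≤ U.map π := hS ▸ hT.1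
    have hcl : ∀ x ∈ T, ∀ g : G, g * x * g⁻¹ ∈ (S : Subgroup G) → g * x * g⁻¹ ∈ T := by
      intro x hx g hg
      have hle : Subgroup.zpowers x ≤ T := Subgroup.zpowers_le.mpr hx
      have hmem : conjHom (Subgroup.zpowers x) g ∈
          (groupFusionSystem (S : Subgroup G)).Hom (Subgroup.zpowers x) := by
        refine ⟨hle.trans hT.1, ?_, g, fun y => rfl⟩
        rintro ⟨y, n, rfl⟩
        show g * x ^ n * g⁻¹ ∈ (S : Subgroup G)
        rw [← conj_zpow]
        exact zpow_mem hg n
      exact hT.2 _ hle _ hmem ⟨x, Subgroup.mem_zpowers x⟩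
    have hback : T ≤ (T.comap π ⊓ U).map π := fun t ht => by
      obtain ⟨u, hu, rfl⟩ := hTS ht
      exact ⟨u, ⟨ht, hu⟩, rfl⟩
    rcases hsc (T.comap π ⊓ U) inf_le_right (fun x hx g hg => ⟨by
        show π (g * x * g⁻¹) ∈ T
        rw [map_mul, map_mul, map_inv]
        refine hcl (π x) hx.1 (π g) (hS.ge ⟨_, hg, ?_⟩)
        simp, hg⟩) with h | h
    · exact Or.inl (le_bot_iff.mp (hback.trans (by rw [h, Subgroup.map_bot])))
    · refine Or.inr (le_antisymm hT.1 ?_)
      rw [hS]
      rintro _ ⟨u, hu, rfl⟩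
      exact (h.ge hu : u ∈ T.comap π ⊓ U).1
  · -- automorphisms of `S`
    refine le_antisymm (fun α hα => ?_) (iSup₂_le fun R' _ => (Subgroup.closure_le _).mpr ?_)
    · obtain ⟨g, -, hg⟩ := mem_autInducedBy_iff.mp hα
      obtain ⟨n, rfl⟩ := hπ g
      have hn : n ∈ Subgroup.normalizer (U : Set H) := by
        refine hnorm U le_rfl n ?_
        have h := normalizer_of_induced hg
        rwa [hS] at h
      obtain ⟨a, ha, b, hb, haN, hbN, hnab⟩ := hgen n hn
      have hgood : ∀ i, (groupFusionSystem (S : Subgroup G)).IsFullyNormalized ((R i).map π) ∧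
          (groupFusionSystem (S : Subgroup G)).IsRadical p ((R i).map π) ∧
          (groupFusionSystem (S : Subgroup G)).IsCentric ((R i).map π) := by
        intro i
        obtain ⟨w, hwN, hwint⟩ := hw i
        refine good_radical S (hS ▸ Subgroup.map_mono (hRU i)) (fun s hs => ?_) (fun c hc => ?_)
          (hmapn _ w hwN) (fun x hx hwx => ?_)
        · obtain ⟨u, hu, rfl⟩ := hS.le hs
          exact hmapn _ u (hUR i hu)
        · obtain ⟨g', rfl⟩ := hπ c
          obtain ⟨z, hz, hzR⟩ := hC i g' fun r hr => by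
            have h1 := Subgroup.mem_centralizer_iff.mp hc (π r) ⟨r, hr, rfl⟩
            have hz : r⁻¹ * (g' * r * g'⁻¹) ∈ π.ker := by
              rw [MonoidHom.mem_ker]
              simp only [map_mul, map_inv]
              rw [← h1]
              group
            have h2 := hpin _ r _ (hconj g' r (hpow r (hRU i hr))) (hpow r (hRU i hr)) hz
              (mul_inv_cancel_left r _).symm
            rw [inv_mul_eq_one] at h2
            exact (mul_inv_eq_iff_eq_mul.mp h2.symm)
          exact ⟨g' * z, hzR, by rw [map_mul, MonoidHom.mem_ker.mp hz, mul_one]⟩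
        · obtain ⟨u, hu, rfl⟩ := hS.le hx
          refine ⟨u, hwint u hu ?_, rfl⟩
          refine hlift U le_rfl _ (hconj w u (hpow u hu)) ?_
          rw [map_mul, map_mul, map_inv]
          exact hS ▸ hwx
      have hgenle : ∀ i, ∀ y ∈ pNormGen p (R i), π y ∈
          Subgroup.closure {g : G | g ∈ Subgroup.normalizer (((R i).map π : Subgroup G) : Set G) ∧
            ∃ k : ℕ, orderOf g = p ^ k} := by
        intro i y hy
        have hle : pNormGen p (R i) ≤ (Subgroup.closure {g : G | g ∈ Subgroup.normalizer (((R i).map π : Subgroup G) : Set G) ∧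
            ∃ k : ℕ, orderOf g = p ^ k}).comap π := by
          refine (Subgroup.closure_le _).mpr ?_
          rintro x ⟨hx, k, hk⟩
          obtain ⟨j, -, hj⟩ := (Nat.dvd_prime_pow Fact.out).1 (hk ▸ orderOf_map_dvd π x)
          exact Subgroup.subset_closure ⟨hmapn _ x hx, j, hj⟩
        exact hle hy
      have haS : π a ∈ Subgroup.normalizer ((S : Subgroup G) : Set G) := hS ▸ hmapn U a haN
      have hbS : π b ∈ Subgroup.normalizer ((S : Subgroup G) : Set G) := hS ▸ hmapn U b hbN
      have hαeq : α = conjAut (S : Subgroup G) (π b) hbS * conjAut (S : Subgroup G) (π a) haS := by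
        refine MulEquiv.ext fun x => Subtype.ext ?_
        rw [hg x, hnab, map_mul]
        show π b * π a * (x : G) * (π b * π a)⁻¹ = π b * (π a * x * (π a)⁻¹) * (π b)⁻¹
        group
      rw [hαeq]
      refine mul_mem ?_ ?_
      · exact Subgroup.mem_iSup_of_mem _ (Subgroup.mem_iSup_of_mem (hgood 1) (conjAut_mem (hgenle 1 b hb) hbS))
      · exact Subgroup.mem_iSup_of_mem _ (Subgroup.mem_iSup_of_mem (hgood 0) (conjAut_mem (hgenle 0 a ha) haS))
    · rintro α ⟨g, -, hg⟩
      exact mem_autInducedBy_iff.mpr ⟨g, Subgroup.mem_top g, hg⟩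

end CfsgLib.FusionSub
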