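import Cfsg.Agent.Lib.FusionSub.SympStronglyClosed

/-!
The normalizer of the unipotent subgroup of the symplectic group is generated by elements of the
subgroups generated by the elements of `p`-power order normalizing the two radical subgroups.
-/

set_option autoImplicit false
set_option linter.unusedSectionVars false
set_option linter.unusedVariables false
set_option linter.style.haveILetI false

open Matrix
open CfsgLib.ClassicalLinear CfsgLib.ReflectionsSpinor.PSpAut

namespace CfsgLib.FusionSub.Symp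

universe u

variable {m : ℕ} {F : Type u} [Field F] [Fintype F]

local notation "V" => (Fin m ⊕ Fin m → F)
local notation "Mm" => Matrix (Fin m) (Fin m) F
local notation "M2" => Matrix (Fin m ⊕ Fin m) (Fin m ⊕ Fin m) F
local notation "Sp" => Matrix.symplecticGroup (Fin m) F
local notation "ω" => Cfsg.sympForm m F

theorem isPGroup_uniU (p : ℕ) [Fact p.Prime] [CharP F p] : IsPGroup p (uniU m F) := by
  obtain ⟨f, hf0, hf⟩ := card_field_eq_pow (F := F) p
  exact IsPGroup.of_card (n := f * m ^ 2)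
    (by rw [card_uniU, Nat.card_eq_fintype_card, hf, pow_mul])

theorem uniU_ne_bot (hm : 1 ≤ m) : uniU m F ≠ ⊥ := by
  intro h
  have h1 := upS_mem (m := m) (F := F) (single_symm ⟨0, hm⟩ (1 : F))
  rw [h, Subgroup.mem_bot] at h1
  have h2 := congrFun (congrFun (upS_eq_one _ h1) ⟨0, hm⟩) ⟨0, hm⟩
  simp at h2

theorem spT_vE_mem (i : Fin m) (c : F) : spT (vE i : V) c ∈ uniU m F := by
  refine mem_uniU_iff_smul.2 fun j => ?_
  rw [spT_vE_smul]
  exact ⟨fun k => by simp [vE], fun k _ => by simp [vE, Pi.single_apply]⟩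

theorem spT_pow (w : V) (c : F) (n : ℕ) : spT w c ^ n = spT w ((n : F) * c) := by
  induction n with
  | zero => rw [pow_zero, Nat.cast_zero, zero_mul, spT_zero]
  | succ n ih => rw [pow_succ, ih, spT_add, Nat.cast_succ, add_mul, one_mul]

theorem trans_mul {i j : Fin m} (h : i ≠ j) (c d : F) : trans h c * trans h d = trans h (c + d) :=
  Units.ext (by rw [Units.val_mul, coe_trans, coe_trans, coe_trans, Matrix.transvection_mul_transvection_same (h := h)])

theorem trans_pow {i j : Fin m} (h : i ≠ j) (c : F) (n : ℕ) : trans h c ^ n = trans h ((n : F) * c) := by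
  induction n with
  | zero =>
    rw [pow_zero, Nat.cast_zero, zero_mul]
    exact Units.ext (by rw [coe_trans, Matrix.transvection_zero, Units.val_one])
  | succ n ih => rw [pow_succ, ih, trans_mul, Nat.cast_succ, add_mul, one_mul]

/-- An element normalizing `uniU` lies in the Siegel parabolic. -/
theorem toBlocks₂₁_eq_zero_of_mem_normalizer {g : Sp}
    (hg : g ∈ Subgroup.normalizer ((uniU m F : Subgroup Sp) : Set Sp)) :
    (g : M2).toBlocks₂₁ = 0 := by
  ext i j
  show (g : M2) (Sum.inr i) (Sum.inl j) = 0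
  rw [← smul_vE_apply, ← omega_vE (g • (vE j : V)) i]
  by_contra hx
  have ht : g⁻¹ * spT (vE i) 1 * g⁻¹⁻¹ ∈ uniU m F :=
    (Subgroup.mem_normalizer_iff.1 (inv_mem hg) _).1 (spT_vE_mem i 1)
  rw [conj_spT] at ht
  have hinv : ω (vE j : V) (g⁻¹ • vE i) = ω (g • vE j : V) (vE i) := by
    have h := sympForm_smul g (vE j : V) (g⁻¹ • vE i)
    rw [smul_inv_smul] at h
    exact h.symm
  have hk : ∀ k, (g⁻¹ • (vE i : V)) (Sum.inr k) = 0 := fun k => by
    have h := (mem_uniU_iff_smul.1 ht j).1 k
    rw [spT_smul, hinv, one_mul] at h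
    simp [vE] at h
    exact h.resolve_left hx
  apply hx
  rw [← hinv, sympForm_skew, omega_vE, hk, neg_zero]

theorem levi_diag_mem_normalizer (d : Fin m → Fˣ) :
    levi (diagGL d) ∈ Subgroup.normalizer ((uniU m F : Subgroup Sp) : Set Sp) := by
  refine Subgroup.mem_normalizer_fintype fun u hu => ?_
  obtain ⟨A, S, hS, hA, rfl⟩ := mem_uniU_iff.1 hu
  refine mem_uniU_iff.2 ⟨diagGL d * A * (diagGL d)⁻¹, _, congr_symm (diagGL d : Mm) hS, ?_, ?_⟩
  · intro i j hji
    rw [Units.val_mul, Units.val_mul, show (((diagGL d)⁻¹ : GL (Fin m) F) : Mm) =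
        Matrix.diagonal fun i => (((d i)⁻¹ : Fˣ) : F) from rfl,
      Matrix.mul_diagonal, coe_diagGL, Matrix.diagonal_mul, hA i j hji]
    rcases eq_or_ne i j with rfl | hij
    · simp
    · simp [hij]
  · rw [← levi_mul_upS (diagGL d) hS, map_mul, map_mul, map_inv]
    group

/-- The diagonal element changing only the entry at `l`. -/
def diagAt (l : Fin m) (δ : Fˣ) : GL (Fin m) F := diagGL (Function.update 1 l δ)

theorem det_diagAt (l : Fin m) (δ : Fˣ) : (diagAt l δ : Mm).det = δ := by
  rw [diagAt, coe_diagGL, Matrix.det_diagonal, Finset.prod_eq_single l]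
  · simp
  · intro b _ hb; simp [hb]
  · simp

theorem levi_diagAt_eq (l : Fin m) (δ : Fˣ) :
    levi (diagAt l δ) = swapEl l (δ : F) * swapEl l (-1 : F) := by
  have h1 := isSwap_swapEl l δ.ne_zero
  have h2 := isSwap_swapEl l (neg_ne_zero.2 (one_ne_zero (α := F)))
  have hE : ∀ k, levi (diagAt l δ) • (vE k : V) = ((Function.update 1 l δ : Fin m → Fˣ) k : F) • vE k := fun k => by
    rw [levi_smul_vE]
    funext x
    rcases x with x | x
    · rcases eq_or_ne x k with rfl | hx
      · simp [diagAt, coe_diagGL, vE]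
      · simp [diagAt, coe_diagGL, vE, hx]
    · simp [vE]
  have hF : ∀ k, levi (diagAt l δ) • (vF k : V) = (((Function.update 1 l δ : Fin m → Fˣ) k)⁻¹ : Fˣ) • vF k := fun k => by
    rw [levi_smul_vF, show (((diagAt l δ)⁻¹ : GL (Fin m) F) : Mm) =
        Matrix.diagonal fun i => ((((Function.update 1 l δ : Fin m → Fˣ) i))⁻¹ : Fˣ).val from rfl]
    funext x
    rcases x with x | x
    · simp [vF, Units.smul_def]
    · rcases eq_or_ne x k with rfl | hx
      · simp [vF, Units.smul_def]
      · simp [vF, hx, Ne.symm hx, Units.smul_def]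
  refine sp_ext_basis (fun k => ?_) fun k => ?_
  · rw [hE, mul_smul]
    rcases eq_or_ne k l with rfl | hk
    · rw [h2.left, smul_comm (swapEl k (δ : F)), h1.right, smul_smul]
      simp
    · rw [h2.fixE k hk, h1.fixE k hk]; simp [hk]
  · rw [hF, mul_smul]
    rcases eq_or_ne k l with rfl | hk
    · rw [h2.right, smul_comm (swapEl k (δ : F)), h1.left, smul_smul]
      simp [Units.smul_def]
    · rw [h2.fixF k hk, h1.fixF k hk]; simp [hk]

theorem swapEl_mem_pNormGen (p : ℕ) [Fact p.Prime] [CharP F p] {l : Fin m} (hl : ∀ i, i ≤ l) {d : F}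
    (hd : d ≠ 0) : swapEl l d ∈ pNormGen p (cornerRad hl : Subgroup Sp) := by
  have hE : ∀ c : F, spT (vE l : V) c ∈ pNormGen p (cornerRad hl : Subgroup Sp) := fun c =>
    mem_pNormGen (uniU_le_normalizer_cornerRad hl (spT_vE_mem l c)) (k := 1)
      (by rw [pow_one, spT_pow, CharP.cast_eq_zero, zero_mul, spT_zero])
  have hF : ∀ c : F, spT (vF l : V) c ∈ pNormGen p (cornerRad hl : Subgroup Sp) := fun c => by
    have hw := isSwap_swapEl l (one_ne_zero (α := F))
    have hwn := hw.mem_normalizer hl one_ne_zero (neg_ne_zero.2 (inv_ne_zero one_ne_zero))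
    have e : spT (vF l : V) c = swapEl l (1 : F) * spT (vE l) c * (swapEl l (1 : F))⁻¹ := by
      rw [conj_spT, hw.left, spT_smul_vec]
      simp
    refine mem_pNormGen ?_ (k := 1) (by rw [pow_one, spT_pow, CharP.cast_eq_zero, zero_mul, spT_zero])
    rw [e]
    exact mul_mem (mul_mem hwn (uniU_le_normalizer_cornerRad hl (spT_vE_mem l c))) (inv_mem hwn)
  exact mul_mem (mul_mem (hE _) (hF _)) (hE _)

theorem levi_mem_pNormGen (p : ℕ) [Fact p.Prime] [CharP F p] {A : GL (Fin m) F}
    (hA : (A : Mm).det = 1) : levi A ∈ pNormGen p (siegelRad m F) := by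
  have h : (pNormGen p (siegelRad m F)).comap
      ((levi (m := m) (F := F)).comp Matrix.SpecialLinearGroup.toGL) = ⊤ := by
    refine eq_top_of_transvection_mem fun i j hij c => ?_
    show levi (trans hij c) ∈ pNormGen p (siegelRad m F)
    exact mem_pNormGen (R := siegelRad m F) (g := levi (trans hij c)) (block_mem_normalizer_siegelRad (by rw [coe_levi, Matrix.toBlocks_fromBlocks₂₁]))
      (k := 1) (by
        rw [pow_one, ← map_pow, trans_pow, CharP.cast_eq_zero, zero_mul, ← map_one (levi (m := m) (F := F))]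
        exact congrArg levi (Units.ext (by rw [coe_trans, Matrix.transvection_zero, Units.val_one])))
  obtain ⟨B, hB⟩ : ∃ B : Matrix.SpecialLinearGroup (Fin m) F, (B : Mm) = A := ⟨⟨A, hA⟩, rfl⟩
  have hmem := h.ge (Subgroup.mem_top B)
  have e : Matrix.SpecialLinearGroup.toGL B = A := Units.ext hB
  rw [Subgroup.mem_comap, MonoidHom.comp_apply, e] at hmem
  exact hmem

/-- Generation of the normalizer of `uniU`. -/
theorem normalizer_generation (p : ℕ) [Fact p.Prime] [CharP F p] {l : Fin m} (hl : ∀ i, i ≤ l) {n : Sp}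
    (hn : n ∈ Subgroup.normalizer ((uniU m F : Subgroup Sp) : Set Sp)) :
    ∃ a ∈ pNormGen p (siegelRad m F), ∃ b ∈ pNormGen p (cornerRad hl : Subgroup Sp),
      a ∈ Subgroup.normalizer ((uniU m F : Subgroup Sp) : Set Sp) ∧
      b ∈ Subgroup.normalizer ((uniU m F : Subgroup Sp) : Set Sp) ∧ n = b * a := by
  obtain ⟨A, S, hS, rfl, -, -⟩ := exists_levi_upS (toBlocks₂₁_eq_zero_of_mem_normalizer hn)
  set δ : Fˣ := Matrix.GeneralLinearGroup.det A with hδ
  have hdet : (((diagAt l δ)⁻¹ * A : GL (Fin m) F) : Mm).det = 1 := by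
    have h1 : Matrix.GeneralLinearGroup.det (diagAt l δ) = δ := Units.ext (det_diagAt l δ)
    have h2 : Matrix.GeneralLinearGroup.det ((diagAt l δ)⁻¹ * A) = 1 := by
      rw [map_mul, map_inv, h1, hδ, inv_mul_cancel]
    exact congrArg Units.val h2
  have hd : levi (diagAt l δ) ∈ Subgroup.normalizer ((uniU m F : Subgroup Sp) : Set Sp) :=
    levi_diag_mem_normalizer _
  obtain ⟨k, hk⟩ := isPGroup_uniU p ⟨upS S hS, upS_mem hS⟩
  refine ⟨(levi (diagAt l δ))⁻¹ * (levi A * upS S hS), ?_, levi (diagAt l δ), ?_,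
    mul_mem (inv_mem hd) hn, hd, (mul_inv_cancel_left _ _).symm⟩
  · rw [← mul_assoc, ← map_inv, ← map_mul]
    exact mul_mem (levi_mem_pNormGen p hdet)
      (mem_pNormGen (uniU_le_normalizer_siegelRad (upS_mem hS)) (congrArg Subtype.val hk))
  · rw [levi_diagAt_eq]
    exact mul_mem (swapEl_mem_pNormGen p hl δ.ne_zero)
      (swapEl_mem_pNormGen p hl (neg_ne_zero.2 one_ne_zero))

/-- The order reversing permutation matrix. -/
def revGL : GL (Fin m) F :=
  ⟨Matrix.of fun i j => if j = i.rev then 1 else 0, Matrix.of fun i j => if j = i.rev then 1 else 0,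
    by ext i j; rw [Matrix.mul_apply, Finset.sum_eq_single i.rev] <;> simp +contextual [Matrix.one_apply, eq_comm],
    by ext i j; rw [Matrix.mul_apply, Finset.sum_eq_single i.rev] <;> simp +contextual [Matrix.one_apply, eq_comm]⟩

theorem rev_conj_apply (A : Mm) (i j : Fin m) :
    ((revGL : GL (Fin m) F) : Mm) * A * ((revGL⁻¹ : GL (Fin m) F) : Mm) = A.submatrix Fin.rev Fin.rev := by
  ext a b
  show ((Matrix.of fun i j => if j = i.rev then (1 : F) else 0) * A *
    (Matrix.of fun i j => if j = i.rev then (1 : F) else 0) : Mm) a b = _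
  rw [Matrix.mul_apply, Finset.sum_eq_single b.rev]
  · rw [Matrix.mul_apply, Finset.sum_eq_single a.rev] <;> simp +contextual
  · intro k _ hk
    simp [show b ≠ k.rev from fun h => hk (by rw [h, Fin.rev_rev])]
  · simp

theorem exists_siegel_element :
    ∃ w ∈ Subgroup.normalizer ((siegelRad m F : Subgroup Sp) : Set Sp),
      ∀ u ∈ uniU m F, w * u * w⁻¹ ∈ uniU m F → u ∈ siegelRad m F := by
  refine ⟨levi revGL, block_mem_normalizer_siegelRad (by rw [coe_levi, Matrix.toBlocks_fromBlocks₂₁]),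
    fun u hu hu' => ?_⟩
  obtain ⟨A, S, hS, hA, rfl⟩ := mem_uniU_iff.1 hu
  have e : levi revGL * (levi A * upS S hS) * (levi revGL)⁻¹ =
      levi (revGL * A * revGL⁻¹) * upS _ (congr_symm ((revGL : GL (Fin m) F) : Mm) hS) := by
    rw [← levi_mul_upS revGL hS, map_mul, map_mul, map_inv]
    group
  rw [e] at hu'
  have h := (mem_uniU.1 hu').2
  rw [toBlocks₁₁_levi_mul] at h
  have hA1 : A = 1 := by
    refine Units.ext (Matrix.ext fun i j => ?_)
    rw [Units.val_one, Matrix.one_apply]
    rcases le_total j i with hji | hij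
    · exact hA i j hji
    · have h' := h i.rev j.rev (Fin.rev_le_rev.2 hij)
      rw [Units.val_mul, Units.val_mul, rev_conj_apply _ i j, Matrix.submatrix_apply, Fin.rev_rev, Fin.rev_rev] at h'
      rw [h']
      simp
  exact ⟨S, hS, by rw [hA1, map_one, one_mul]⟩

theorem exists_corner_element {l : Fin m} (hl : ∀ i, i ≤ l) :
    ∃ w ∈ Subgroup.normalizer ((cornerRad hl : Subgroup Sp) : Set Sp),
      ∀ u ∈ uniU m F, w * u * w⁻¹ ∈ uniU m F → u ∈ cornerRad hl := by
  have hw := isSwap_swapEl l (one_ne_zero (α := F))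
  have hb : (-(1 : F)⁻¹) ≠ 0 := neg_ne_zero.2 (inv_ne_zero one_ne_zero)
  exact ⟨swapEl l 1, hw.mem_normalizer hl one_ne_zero hb, fun u hu hu' =>
    ⟨hu, hw.corner_eq_zero hl hb hu hu'⟩⟩

end CfsgLib.FusionSub.Symp
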