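import Cfsg.Agent.Lib.FusionSub.SympBlocks
import Cfsg.Agent.Lib.FusionSub.ParabolicSimple

/-!
The two radical subgroups used for the fusion system of the symplectic group in the defining
characteristic.
-/

set_option autoImplicit false
set_option linter.unusedSectionVars false
set_option linter.unusedVariables false
set_option linter.style.haveILetI false

open Matrix
open CfsgLib.ClassicalLinear CfsgLib.ReflectionsSpinor.PSpAut

namespace CfsgLib.FusionSub.Symp

universe u

variable {m : ℕ} {F : Type u} [Field F] [Fintype F]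

local notation "V" => (Fin m ⊕ Fin m → F)
local notation "Mm" => Matrix (Fin m) (Fin m) F
local notation "M2" => Matrix (Fin m ⊕ Fin m) (Fin m ⊕ Fin m) F
local notation "Sp" => Matrix.symplecticGroup (Fin m) F
local notation "ω" => Cfsg.sympForm m F

theorem elim_eq_sum (c : Fin m → F) :
    Sum.elim c (0 : Fin m → F) = ∑ i, c i • (vE i : V) := by
  funext x
  rw [Finset.sum_apply]
  rcases x with x | x <;> simp [vE, Pi.single_apply]

theorem smul_vE_apply (g : Sp) (j : Fin m) (x : Fin m ⊕ Fin m) :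
    (g • (vE j : V)) x = (g : M2) x (Sum.inl j) := by
  rw [sp_smul_eq, vE, Matrix.mulVec_single_one]
  rfl

theorem smul_vF_apply (g : Sp) (j : Fin m) (x : Fin m ⊕ Fin m) :
    (g • (vF j : V)) x = (g : M2) x (Sum.inr j) := by
  rw [sp_smul_eq, vF, Matrix.mulVec_single_one]
  rfl

theorem mem_uniU_iff_smul {g : Sp} :
    g ∈ uniU m F ↔ ∀ j, (∀ i, (g • (vE j : V)) (Sum.inr i) = 0) ∧
      ∀ i, j ≤ i → (g • (vE j : V)) (Sum.inl i) = if i = j then 1 else 0 := by
  rw [mem_uniU]
  constructor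
  · rintro ⟨h1, h2⟩ j
    refine ⟨fun i => ?_, fun i hij => ?_⟩
    · rw [smul_vE_apply]; exact congrFun (congrFun h1 i) j
    · rw [smul_vE_apply]; exact h2 i j hij
  · intro h
    refine ⟨Matrix.ext fun i j => ?_, fun i j hij => ?_⟩
    · show (g : M2) (Sum.inr i) (Sum.inl j) = 0
      rw [← smul_vE_apply]; exact (h j).1 i
    · show (g : M2) (Sum.inl i) (Sum.inl j) = _
      rw [← smul_vE_apply]; exact (h j).2 i hij

theorem smul_vE_of_mem {u : Sp} (hu : u ∈ uniU m F) (j : Fin m) :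
    u • (vE j : V) = ∑ i, (u • (vE j : V)) (Sum.inl i) • vE i := by
  rw [← elim_eq_sum (fun i => (u • (vE j : V)) (Sum.inl i))]
  funext x
  rcases x with x | x
  · rfl
  · exact (mem_uniU_iff_smul.1 hu j).1 x

theorem smul_vF_last {u : Sp} (hu : u ∈ uniU m F) {l : Fin m} (hl : ∀ i, i ≤ l) :
    u • (vF l : V) = vF l + ∑ i, (u • (vF l : V)) (Sum.inl i) • vE i := by
  obtain ⟨A, S, hS, hA, rfl⟩ := mem_uniU_iff.1 hu
  rw [← elim_eq_sum (fun i => ((levi A * upS S hS : Sp) • (vF l : V)) (Sum.inl i))]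
  funext x
  rcases x with x | x
  · simp [vF]
  rw [smul_vF_apply]
  show ((levi A : M2) * (upS S hS : M2)) (Sum.inr x) (Sum.inr l) = _
  rw [coe_levi, coe_upS, Matrix.fromBlocks_multiply]
  simp only [Matrix.fromBlocks_apply₂₂, Matrix.zero_mul, Matrix.mul_one, zero_add,
    Matrix.transpose_apply, Pi.add_apply, Sum.elim_inr, Pi.zero_apply, add_zero, vF]
  have h1 : ((A⁻¹ : GL (Fin m) F) : Mm) * (A : Mm) = 1 := by
    rw [← Units.val_mul, inv_mul_cancel, Units.val_one]
  have hrow : ∀ k, (A : Mm) l k = if l = k then 1 else 0 := fun k => hA l k (hl k)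
  -- the last row of the inverse is the last row of the identity
  have h2 : (A : Mm) * ((A⁻¹ : GL (Fin m) F) : Mm) = 1 := by
    rw [← Units.val_mul, mul_inv_cancel, Units.val_one]
  have h3 := congrFun (congrFun h2 l) x
  rw [Matrix.mul_apply] at h3
  simp only [hrow, ite_mul, one_mul, zero_mul, Finset.sum_ite_eq, Finset.mem_univ, if_true] at h3
  rw [h3, Matrix.one_apply]
  simp [Pi.single_apply, eq_comm]

/-- The corner entry. -/
def corner (l : Fin m) (u : Matrix.symplecticGroup (Fin m) F) : F :=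
  (u • (vF l : Fin m ⊕ Fin m → F)) (Sum.inl l)

theorem corner_mul {u v : Sp} (hu : u ∈ uniU m F) (hv : v ∈ uniU m F) {l : Fin m} (hl : ∀ i, i ≤ l) :
    corner l (u * v) = corner l u + corner l v := by
  rw [corner, mul_smul, smul_vF_last hv hl, smul_add, Finset.smul_sum, Pi.add_apply, Finset.sum_apply,
    Finset.sum_eq_single l]
  · rw [smul_comm, Pi.smul_apply, (mem_uniU_iff_smul.1 hu l).2 l le_rfl, if_pos rfl]
    simp [corner]
  · intro i _ hi
    rw [smul_comm, Pi.smul_apply, (mem_uniU_iff_smul.1 hu i).2 l (hl i), if_neg (Ne.symm hi), smul_zero]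
  · simp

theorem corner_one (l : Fin m) : corner l (1 : Sp) = 0 := by simp [corner, vF]

theorem corner_upS {S : Mm} (hS : Sᵀ = S) (l : Fin m) : corner l (upS S hS) = S l l := by
  rw [corner, smul_vF_apply, coe_upS, Matrix.fromBlocks_apply₁₂]

theorem corner_levi (A : GL (Fin m) F) (l : Fin m) : corner l (levi A) = 0 := by
  rw [corner, smul_vF_apply, coe_levi, Matrix.fromBlocks_apply₁₂]
  rfl

variable (m F) in
/-- The unipotent radical of the Siegel parabolic. -/
noncomputable def siegelRad : Subgroup (Matrix.symplecticGroup (Fin m) F) where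
  carrier := {g | ∃ (S : Matrix (Fin m) (Fin m) F) (hS : Sᵀ = S), g = upS S hS}
  one_mem' := ⟨0, Matrix.transpose_zero, (upS_zero _).symm⟩
  mul_mem' := by
    rintro a b ⟨S, hS, rfl⟩ ⟨S', hS', rfl⟩
    exact ⟨_, _, upS_mul hS hS'⟩
  inv_mem' := by
    rintro a ⟨S, hS, rfl⟩
    exact ⟨_, _, upS_inv hS⟩

/-- The subgroup of `uniU` of elements with zero corner. -/
noncomputable def cornerRad {l : Fin m} (hl : ∀ i, i ≤ l) : Subgroup (Matrix.symplecticGroup (Fin m) F) where
  carrier := {g | g ∈ uniU m F ∧ corner l g = 0}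
  one_mem' := ⟨one_mem _, corner_one l⟩
  mul_mem' := by
    rintro a b ⟨ha, ha'⟩ ⟨hb, hb'⟩
    exact ⟨mul_mem ha hb, by rw [corner_mul ha hb hl, ha', hb', add_zero]⟩
  inv_mem' := by
    rintro a ⟨ha, ha'⟩
    refine ⟨inv_mem ha, ?_⟩
    have h := corner_mul (inv_mem ha) ha hl
    rwa [inv_mul_cancel, corner_one, ha', add_zero, eq_comm] at h

theorem siegelRad_le : siegelRad m F ≤ uniU m F := by
  rintro _ ⟨S, hS, rfl⟩
  exact upS_mem hS

theorem cornerRad_le {l : Fin m} (hl : ∀ i, i ≤ l) : cornerRad hl ≤ uniU m F := fun _ h => h.1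

theorem uniU_le_normalizer_cornerRad {l : Fin m} (hl : ∀ i, i ≤ l) :
    uniU m F ≤ Subgroup.normalizer ((cornerRad hl : Subgroup Sp) : Set Sp) := by
  intro g hg
  refine Subgroup.mem_normalizer_fintype fun x hx => ⟨mul_mem (mul_mem hg hx.1) (inv_mem hg), ?_⟩
  have h := corner_mul hg (inv_mem hg) hl
  rw [mul_inv_cancel, corner_one] at h
  rw [corner_mul (mul_mem hg hx.1) (inv_mem hg) hl, corner_mul hg hx.1 hl, hx.2, add_zero, ← h]

theorem block_mem_normalizer_siegelRad {g : Sp} (hg : (g : M2).toBlocks₂₁ = 0) :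
    g ∈ Subgroup.normalizer ((siegelRad m F : Subgroup Sp) : Set Sp) := by
  obtain ⟨A, S, hS, rfl, -, -⟩ := exists_levi_upS hg
  refine Subgroup.mem_normalizer_fintype ?_
  rintro _ ⟨X, hX, rfl⟩
  refine ⟨_, congr_symm (A : Mm) hX, ?_⟩
  rw [← levi_mul_upS A hX]
  have hc : upS S hS * upS X hX = upS X hX * upS S hS := by
    rw [upS_mul, upS_mul]; exact upS_congr _ _ (add_comm _ _)
  calc levi A * upS S hS * upS X hX * (levi A * upS S hS)⁻¹
      = levi A * (upS S hS * upS X hX) * (upS S hS)⁻¹ * (levi A)⁻¹ := by group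
    _ = levi A * upS X hX * (levi A)⁻¹ := by rw [hc]; group

theorem uniU_le_normalizer_siegelRad :
    uniU m F ≤ Subgroup.normalizer ((siegelRad m F : Subgroup Sp) : Set Sp) :=
  fun g hg => block_mem_normalizer_siegelRad (mem_uniU.1 hg).1

/-- The Levi-unipotent decomposition is unique. -/
theorem levi_upS_inj {A A' : GL (Fin m) F} {S S' : Mm} (hS : Sᵀ = S) (hS' : S'ᵀ = S')
    (h : levi A * upS S hS = levi A' * upS S' hS') : A = A' ∧ S = S' := by
  have hA : A = A' := Units.ext (by rw [← toBlocks₁₁_levi_mul A hS, h, toBlocks₁₁_levi_mul A' hS'])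
  subst hA
  refine ⟨rfl, ?_⟩
  have h1 := congrArg (fun x : Sp => (x : M2).toBlocks₁₂) (mul_left_cancel h)
  simpa [coe_upS] using h1

/-- An element commuting with `upS S` has lower left block annihilated by `S`. -/
theorem mul_eq_zero_of_commute {g : Sp} {S : Mm} (hS : Sᵀ = S) (h : g * upS S hS = upS S hS * g) :
    S * (g : M2).toBlocks₂₁ = 0 := by
  have h1 := congrArg (fun x : Sp => (x : M2).toBlocks₁₁) h
  simp only [Submonoid.coe_mul, coe_upS] at h1
  rw [← Matrix.fromBlocks_toBlocks (g : M2), Matrix.fromBlocks_multiply, Matrix.fromBlocks_multiply] at h1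
  simp only [Matrix.toBlocks_fromBlocks₁₁, Matrix.mul_one, Matrix.one_mul, Matrix.mul_zero,
    Matrix.zero_mul, add_zero] at h1
  exact left_eq_add.1 h1

/-- An element of the parabolic commuting with `upS S` fixes `S` under congruence. -/
theorem congr_eq_of_commute {A : GL (Fin m) F} {S0 S : Mm} (hS0 : S0ᵀ = S0) (hS : Sᵀ = S)
    (h : levi A * upS S0 hS0 * upS S hS = upS S hS * (levi A * upS S0 hS0)) :
    (A : Mm) * S * (A : Mm)ᵀ = S := by
  have hc : upS S hS * upS S0 hS0 = upS S0 hS0 * upS S hS := by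
    rw [upS_mul, upS_mul]; exact upS_congr _ _ (add_comm _ _)
  have h1 : levi A * upS S hS * upS S0 hS0 = upS S hS * levi A * upS S0 hS0 := by
    rw [mul_assoc, hc, ← mul_assoc, h, mul_assoc]
  have h2 := mul_right_cancel h1
  have h3 := levi_mul_upS A hS
  rw [h2, mul_inv_cancel_right] at h3
  have h4 := congrArg (fun x : Sp => (x : M2).toBlocks₁₂) h3
  simpa [coe_upS] using h4.symm

theorem single_symm (a : Fin m) (c : F) : (Matrix.single a a c : Mm)ᵀ = Matrix.single a a c :=
  Matrix.transpose_single a a c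

theorem short_symm (a b : Fin m) (c : F) :
    (Matrix.single a b c + Matrix.single b a c : Mm)ᵀ = Matrix.single a b c + Matrix.single b a c := by
  rw [Matrix.transpose_add, Matrix.transpose_single, Matrix.transpose_single, add_comm]

theorem congr_single (A : Mm) (a b i j : Fin m) (c : F) :
    (A * Matrix.single a b c * Aᵀ) i j = A i a * c * A j b := by
  rw [Matrix.mul_apply, Finset.sum_eq_single b]
  · simp [Matrix.transpose_apply]
  · intro k _ hk
    rw [Matrix.mul_single_apply_of_ne (hbj := hk), zero_mul]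
  · simp

theorem levi_scalar_mem_center {c : F} (hc : c * c = 1) :
    ∃ z ∈ Subgroup.center Sp, ∀ A A' : GL (Fin m) F, (A' : Mm) = c • (A : Mm) → levi A * z = levi A' := by
  let C : GL (Fin m) F := ⟨c • 1, c • 1, by rw [smul_mul_smul_comm, hc, one_mul, one_smul],
    by rw [smul_mul_smul_comm, hc, one_mul, one_smul]⟩
  refine ⟨levi C, mem_center_of_eq_or_neg ?_, fun A A' hA' => ?_⟩
  · rcases mul_self_eq_one_iff.1 hc with rfl | rfl
    · left
      rw [coe_levi]
      show Matrix.fromBlocks ((1 : F) • (1 : Mm)) 0 0 ((1 : F) • (1 : Mm))ᵀ = _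
      simp [Matrix.fromBlocks_one]
    · right
      rw [coe_levi]
      show Matrix.fromBlocks ((-1 : F) • (1 : Mm)) 0 0 ((-1 : F) • (1 : Mm))ᵀ = _
      rw [← Matrix.fromBlocks_one, Matrix.fromBlocks_neg]
      simp
  · rw [← map_mul]
    congr 1
    refine Units.ext ?_
    rw [Units.val_mul, hA']
    show (A : Mm) * (c • 1) = c • (A : Mm)
    rw [Matrix.mul_smul, Matrix.mul_one]

theorem centralizer_siegelRad (hm : 1 ≤ m) {g : Sp} (hg : ∀ r ∈ siegelRad m F, g * r = r * g) :
    ∃ z ∈ Subgroup.center Sp, g * z ∈ siegelRad m F := by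
  have hcom : ∀ {S : Mm} (hS : Sᵀ = S), g * upS S hS = upS S hS * g := fun hS => hg _ ⟨_, hS, rfl⟩
  have h21 : (g : M2).toBlocks₂₁ = 0 := by
    simpa using mul_eq_zero_of_commute (g := g) Matrix.transpose_one (hcom Matrix.transpose_one)
  obtain ⟨A, S0, hS0, rfl, -, -⟩ := exists_levi_upS h21
  have hdiag : ∀ i a : Fin m, (A : Mm) i a * (A : Mm) i a = if i = a then 1 else 0 := fun i a => by
    have h := congrFun (congrFun (congr_eq_of_commute hS0 (single_symm a (1 : F)) (hcom (single_symm a 1))) i) i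
    rw [congr_single, mul_one, Matrix.single_apply] at h
    rw [h]
    simp [eq_comm]
  have hoff : ∀ i a, i ≠ a → (A : Mm) i a = 0 := fun i a h => by
    simpa [h] using hdiag i a
  set i0 : Fin m := ⟨0, hm⟩
  set c := (A : Mm) i0 i0
  have hc : c * c = 1 := by simpa using hdiag i0 i0
  have hA : (A : Mm) = c • 1 := by
    ext i j
    rcases eq_or_ne i j with rfl | hij
    · rw [Matrix.smul_apply, Matrix.one_apply_eq, smul_eq_mul, mul_one]
      rcases eq_or_ne i i0 with rfl | hi
      · rfl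
      have h := congrFun (congrFun (congr_eq_of_commute hS0 (short_symm i i0 (1 : F)) (hcom (short_symm i i0 1))) i) i0
      rw [Matrix.mul_add, Matrix.add_mul, Matrix.add_apply, congr_single, congr_single, hoff i i0 hi] at h
      simp [Matrix.single_apply, hi, Ne.symm hi] at h
      calc (A : Mm) i i = ((A : Mm) i i * c) * c := by rw [mul_assoc, hc, mul_one]
        _ = c := by rw [h, one_mul]
    · rw [hoff i j hij, Matrix.smul_apply, Matrix.one_apply_ne hij, smul_zero]
  obtain ⟨z, hz, hzA⟩ := levi_scalar_mem_center (m := m) hc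
  refine ⟨z, hz, S0, hS0, ?_⟩
  rw [mul_assoc, Subgroup.mem_center_iff.1 hz, ← mul_assoc, hzA A 1 ?_, map_one, one_mul]
  rw [hA, smul_smul, hc, one_smul]
  rfl

theorem centralizer_cornerRad (hm : 2 ≤ m) {l : Fin m} (hl : ∀ i, i ≤ l) {g : Sp}
    (hg : ∀ r ∈ cornerRad hl, g * r = r * g) : ∃ z ∈ Subgroup.center Sp, g * z ∈ cornerRad hl := by
  have hcom : ∀ {S : Mm} (hS : Sᵀ = S), S l l = 0 → g * upS S hS = upS S hS * g := fun hS h =>
    hg _ ⟨upS_mem hS, by rw [corner_upS, h]⟩
  obtain ⟨a0, ha0⟩ : ∃ a : Fin m, a ≠ l := by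
    by_contra! h
    have := h ⟨0, by omega⟩
    have := h ⟨1, by omega⟩
    simp_all [Fin.ext_iff]
    omega
  have ha0l : a0 < l := lt_of_le_of_ne (hl a0) ha0
  have hzero : ∀ a, a ≠ l → (Matrix.single a a (1 : F) : Mm) l l = 0 := fun a ha =>
    Matrix.single_apply_of_ne _ _ _ _ _ (fun h => ha h.1)
  have hzero' : ∀ a, a ≠ l → (Matrix.single a l (1 : F) + Matrix.single l a 1 : Mm) l l = 0 := fun a ha => by
    simp [Matrix.single_apply, ha]
  have h21 : (g : M2).toBlocks₂₁ = 0 := by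
    ext i j
    rcases eq_or_ne i l with rfl | hi
    · have h := congrFun (congrFun (mul_eq_zero_of_commute _ (hcom (short_symm a0 i 1) (hzero' a0 ha0))) a0) j
      simpa [Matrix.add_mul, ha0] using h
    · have h := congrFun (congrFun (mul_eq_zero_of_commute _ (hcom (single_symm i (1 : F)) (hzero i hi))) i) j
      simpa using h
  obtain ⟨A, S0, hS0, rfl, -, -⟩ := exists_levi_upS h21
  have hdiag : ∀ i a : Fin m, a ≠ l → (A : Mm) i a * (A : Mm) i a = if i = a then 1 else 0 := fun i a ha => by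
    have h := congrFun (congrFun (congr_eq_of_commute hS0 (single_symm a (1 : F))
      (hcom (single_symm a 1) (hzero a ha))) i) i
    rw [congr_single, mul_one, Matrix.single_apply] at h
    rw [h]
    simp [eq_comm]
  have hoff : ∀ i a, a ≠ l → i ≠ a → (A : Mm) i a = 0 := fun i a ha h => by simpa [h] using hdiag i a ha
  have hmix : ∀ a, a ≠ l → (A : Mm) a a * (A : Mm) l l = 1 := fun a ha => by
    have h := congrFun (congrFun (congr_eq_of_commute hS0 (short_symm a l (1 : F))
      (hcom (short_symm a l 1) (hzero' a ha))) a) l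
    rw [Matrix.mul_add, Matrix.add_mul, Matrix.add_apply, congr_single, congr_single, hoff l a ha (Ne.symm ha)] at h
    simpa [Matrix.single_apply, ha, Ne.symm ha] using h
  set c := (A : Mm) a0 a0
  have hc : c * c = 1 := by simpa using hdiag a0 a0 ha0
  have hll : (A : Mm) l l = c := by
    calc (A : Mm) l l = c * c * (A : Mm) l l := by rw [hc, one_mul]
      _ = c := by rw [mul_assoc, hmix a0 ha0, mul_one]
  have haa : ∀ a, a ≠ l → (A : Mm) a a = c := fun a ha => by
    have h := hmix a ha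
    rw [hll] at h
    calc (A : Mm) a a = ((A : Mm) a a * c) * c := by rw [mul_assoc, hc, mul_one]
      _ = c := by rw [h, one_mul]
  have hdet : (c • (A : Mm)) * (c • ((A⁻¹ : GL (Fin m) F) : Mm)) = 1 := by
    rw [smul_mul_smul_comm, hc, one_smul, ← Units.val_mul, mul_inv_cancel, Units.val_one]
  let A' : GL (Fin m) F := ⟨c • (A : Mm), c • ((A⁻¹ : GL (Fin m) F) : Mm), hdet, mul_eq_one_comm.1 hdet⟩
  have hA' : IsUni (A' : Mm) := by
    intro i j hji
    show c * (A : Mm) i j = _
    rcases eq_or_ne i j with rfl | hij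
    · rw [if_pos rfl]
      rcases eq_or_ne i l with rfl | hi
      · rw [hll, hc]
      · rw [haa i hi, hc]
    · have hj : j ≠ l := fun h => hij (le_antisymm (h ▸ hl i) hji)
      rw [if_neg hij, hoff i j hj hij, mul_zero]
  obtain ⟨z, hz, hzA⟩ := levi_scalar_mem_center (m := m) hc
  have hgz : levi A * upS S0 hS0 * z = levi A' * upS S0 hS0 := by
    rw [mul_assoc, Subgroup.mem_center_iff.1 hz, ← mul_assoc, hzA A A' rfl]
  have hgzc : ∀ r ∈ cornerRad hl, levi A' * upS S0 hS0 * r = r * (levi A' * upS S0 hS0) := fun r hr => by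
    rw [← hgz, mul_assoc, ← Subgroup.mem_center_iff.1 hz r, ← mul_assoc, hg r hr, mul_assoc]
  refine ⟨z, hz, ?_⟩
  rw [hgz]
  have hu : levi A' * upS S0 hS0 ∈ uniU m F := mem_uniU_iff.2 ⟨A', S0, hS0, hA', rfl⟩
  refine ⟨hu, ?_⟩
  rw [corner_mul (levi_mem_uniU.2 hA') (upS_mem hS0) hl, corner_levi, corner_upS, zero_add]
  set N := trans ha0l.ne (1 : F)
  have hN : levi N ∈ cornerRad hl := ⟨levi_mem_uniU.2 (isUni_trans ha0l 1), corner_levi _ _⟩
  have h1 : levi (N * A' * N⁻¹) * upS _ (congr_symm (N : Mm) hS0) = levi A' * upS S0 hS0 := by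
    rw [← levi_mul_upS N hS0, map_mul, map_mul, map_inv]
    calc levi N * levi A' * (levi N)⁻¹ * (levi N * upS S0 hS0 * (levi N)⁻¹)
        = levi N * (levi A' * upS S0 hS0) * (levi N)⁻¹ := by group
      _ = levi A' * upS S0 hS0 := by rw [← hgzc _ hN, mul_inv_cancel_right]
  have h2 := congrFun (congrFun (levi_upS_inj _ _ h1).2 a0) l
  rw [coe_trans] at h2
  have e : (Matrix.transvection a0 l (1 : F))ᵀ = Matrix.transvection l a0 (1 : F) := by
    simp [Matrix.transvection, Matrix.transpose_add]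
  rw [e] at h2
  simpa [Matrix.mul_transvection_apply_of_ne, ha0, Ne.symm ha0] using h2

theorem IsSwap.inv {w : Sp} {l : Fin m} {a b : F} (hw : IsSwap w l a b) (ha : a ≠ 0) (hb : b ≠ 0) :
    IsSwap w⁻¹ l b⁻¹ a⁻¹ := by
  refine ⟨?_, ?_, fun i hi => ?_, fun i hi => ?_⟩ <;> rw [inv_smul_eq_iff]
  · rw [smul_comm, hw.right, smul_smul, inv_mul_cancel₀ ha, one_smul]
  · rw [smul_comm, hw.left, smul_smul, inv_mul_cancel₀ hb, one_smul]
  · exact (hw.fixE i hi).symm
  · exact (hw.fixF i hi).symm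

theorem IsSwap.corner_eq_zero {w : Sp} {l : Fin m} (hl : ∀ i, i ≤ l) {a b : F} (hw : IsSwap w l a b)
    (hb : b ≠ 0) {u : Sp} (hu : u ∈ uniU m F) (hu' : w * u * w⁻¹ ∈ uniU m F) : corner l u = 0 := by
  have h1 : w • (u • (vF l : V)) = a • ((w * u * w⁻¹) • vE l) := by
    rw [smul_comm a, ← hw.right, ← mul_smul, ← mul_smul, inv_mul_cancel_right]
  have h2 := congrFun h1 (Sum.inr l)
  rw [Pi.smul_apply, (mem_uniU_iff_smul.1 hu' l).1 l, smul_zero, smul_vF_last hu hl, smul_add, hw.right,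
    Finset.smul_sum, Pi.add_apply, Finset.sum_apply, Finset.sum_eq_single l] at h2
  · rw [smul_comm, hw.left, Pi.smul_apply, Pi.smul_apply] at h2
    simp [vE, vF] at h2
    exact h2.resolve_right hb
  · intro i _ hi
    rw [smul_comm, hw.fixE i hi]
    simp [vE]
  · simp

theorem IsSwap.conj_mem_uniU {w : Sp} {l : Fin m} (hl : ∀ i, i ≤ l) {a b : F} (hw : IsSwap w l a b)
    (ha : a ≠ 0) {x : Sp} (hx : x ∈ cornerRad hl) : w * x * w⁻¹ ∈ uniU m F := by
  refine mem_uniU_iff_smul.2 fun j => ?_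
  rcases eq_or_ne j l with rfl | hj
  · obtain ⟨d, hd, hd0⟩ : ∃ d : Fin m → F, x • (vF j : V) = vF j + ∑ i, d i • vE i ∧ d j = 0 :=
      ⟨_, smul_vF_last hx.1 hl, hx.2⟩
    have h : (w * x * w⁻¹) • (vE j : V) = vE j + a⁻¹ • ∑ i, d i • vE i := by
      have hinv : w⁻¹ • (vE j : V) = a⁻¹ • vF j := by
        rw [inv_smul_eq_iff, smul_comm, hw.right, smul_smul, inv_mul_cancel₀ ha, one_smul]
      rw [mul_smul, mul_smul, hinv, smul_comm x, smul_comm w, hd, smul_add, hw.right,
        smul_add, smul_smul, inv_mul_cancel₀ ha, one_smul, Finset.smul_sum]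
      congr 2
      refine Finset.sum_congr rfl fun i _ => ?_
      rw [smul_comm]
      rcases eq_or_ne i j with rfl | hi
      · rw [hd0, zero_smul, zero_smul]
      · rw [hw.fixE i hi]
    rw [h, ← elim_eq_sum]
    refine ⟨fun i => by simp [vE], fun i hi => ?_⟩
    obtain rfl : i = j := le_antisymm (hl i) hi
    simp [vE, hd0]
  · have hinv : w⁻¹ • (vE j : V) = vE j := by rw [inv_smul_eq_iff, hw.fixE j hj]
    have h : (w * x * w⁻¹) • (vE j : V) = x • vE j := by
      rw [mul_smul, mul_smul, hinv, smul_vE_of_mem hx.1, Finset.smul_sum]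
      refine Finset.sum_congr rfl fun i _ => ?_
      rw [smul_comm]
      rcases eq_or_ne i l with rfl | hi
      · rw [(mem_uniU_iff_smul.1 hx.1 j).2 i (hl j), if_neg (Ne.symm hj), zero_smul, zero_smul]
      · rw [hw.fixE i hi]
    rw [h]
    exact mem_uniU_iff_smul.1 hx.1 j

theorem IsSwap.mem_normalizer {w : Sp} {l : Fin m} (hl : ∀ i, i ≤ l) {a b : F} (hw : IsSwap w l a b)
    (ha : a ≠ 0) (hb : b ≠ 0) : w ∈ Subgroup.normalizer ((cornerRad hl : Subgroup Sp) : Set Sp) := by
  refine Subgroup.mem_normalizer_fintype fun x hx => ?_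
  have h := hw.conj_mem_uniU hl ha hx
  refine ⟨h, (hw.inv ha hb).corner_eq_zero hl (inv_ne_zero ha) h ?_⟩
  have e : w⁻¹ * (w * x * w⁻¹) * w⁻¹⁻¹ = x := by group
  rw [e]
  exact hx.1

end CfsgLib.FusionSub.Symp
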