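import Cfsg.Agent.Lib.FusionSub.SympRadicals
import Cfsg.Agent.Lib.TwoGroups.NormalAbelian

/-!
The unipotent subgroup of the symplectic group has no proper nontrivial strongly closed subgroup.
-/

set_option autoImplicit false
set_option linter.unusedSectionVars false
set_option linter.style.haveILetI false

open Matrix
open CfsgLib.ClassicalLinear CfsgLib.ReflectionsSpinor.PSpAut

namespace CfsgLib.FusionSub.Symp

universe u

variable {m : ℕ} {F : Type u} [Field F] [Fintype F]

local notation "V" => (Fin m ⊕ Fin m → F)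
local notation "Mm" => Matrix (Fin m) (Fin m) F
local notation "M2" => Matrix (Fin m ⊕ Fin m) (Fin m ⊕ Fin m) F
local notation "Sp" => Matrix.symplecticGroup (Fin m) F

/-- `upS S` lies in `T`. -/
def InT (T : Subgroup (Matrix.symplecticGroup (Fin m) F)) (S : Matrix (Fin m) (Fin m) F) : Prop :=
  ∃ hS : Sᵀ = S, upS S hS ∈ T

theorem InT.zero (T : Subgroup Sp) : InT T (0 : Mm) :=
  ⟨Matrix.transpose_zero, by rw [upS_zero]; exact one_mem _⟩

theorem InT.add {T : Subgroup Sp} {S S' : Mm} (h : InT T S) (h' : InT T S') : InT T (S + S') := by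
  obtain ⟨hS, h⟩ := h; obtain ⟨hS', h'⟩ := h'
  exact ⟨by rw [Matrix.transpose_add, hS, hS'], by rw [← upS_mul hS hS']; exact mul_mem h h'⟩

theorem InT.neg {T : Subgroup Sp} {S : Mm} (h : InT T S) : InT T (-S) := by
  obtain ⟨hS, h⟩ := h
  exact ⟨by rw [Matrix.transpose_neg, hS], by rw [← upS_inv hS]; exact inv_mem h⟩

theorem InT.sub {T : Subgroup Sp} {S S' : Mm} (h : InT T S) (h' : InT T S') : InT T (S - S') := by
  rw [sub_eq_add_neg]; exact h.add h'.neg

theorem InT.sum {T : Subgroup Sp} {ι : Type*} (s : Finset ι) (f : ι → Mm)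
    (h : ∀ i ∈ s, InT T (f i)) : InT T (∑ i ∈ s, f i) :=
  Finset.sum_induction f (InT T) (fun _ _ => InT.add) (InT.zero T) h

theorem InT.congr {T : Subgroup Sp}
    (hcl : ∀ x ∈ T, ∀ g : Sp, g * x * g⁻¹ ∈ uniU m F → g * x * g⁻¹ ∈ T) (A : GL (Fin m) F)
    {S : Mm} (h : InT T S) : InT T ((A : Mm) * S * (A : Mm)ᵀ) := by
  obtain ⟨hS, h⟩ := h
  refine ⟨congr_symm _ hS, ?_⟩
  rw [← levi_mul_upS A hS]
  exact hcl _ h _ (by rw [levi_mul_upS A hS]; exact upS_mem _)

/-- A diagonal element. -/
def diagGL (d : Fin m → Fˣ) : GL (Fin m) F :=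
  ⟨Matrix.diagonal fun i => (d i : F), Matrix.diagonal fun i => ((d i)⁻¹ : Fˣ),
    by rw [Matrix.diagonal_mul_diagonal]; simp, by rw [Matrix.diagonal_mul_diagonal]; simp⟩

theorem coe_diagGL (d : Fin m → Fˣ) : (diagGL d : Mm) = Matrix.diagonal fun i => (d i : F) := rfl

theorem congr_diag_single (d : Fin m → Fˣ) (a b : Fin m) (c : F) :
    (diagGL d : Mm) * Matrix.single a b c * (diagGL d : Mm)ᵀ = Matrix.single a b ((d a : F) * c * d b) := by
  ext i j
  rw [congr_single, coe_diagGL]
  by_cases h : a = i ∧ b = j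
  · obtain ⟨rfl, rfl⟩ := h; simp
  · rw [Matrix.single_apply, if_neg h]
    by_cases hi : i = a
    · subst hi
      have hb : j ≠ b := fun hb => h ⟨rfl, hb.symm⟩
      simp [Matrix.diagonal_apply_ne _ hb]
    · simp [Matrix.diagonal_apply_ne _ hi]

theorem transvection_transpose (a b : Fin m) (t : F) :
    (Matrix.transvection a b t)ᵀ = Matrix.transvection b a t := by
  simp [Matrix.transvection, Matrix.transpose_add]

/-- Congruence by a transvection of an elementary matrix. -/
theorem congr_trans_single {i j : Fin m} (h : i ≠ j) (t : F) (a b : Fin m) (c : F) :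
    (trans h t : Mm) * Matrix.single a b c * (trans h t : Mm)ᵀ =
      Matrix.single a b c + (if j = a then Matrix.single i b (t * c) else 0) +
        (if j = b then Matrix.single a i (c * t) else 0) +
        (if j = a ∧ j = b then Matrix.single i i (t * c * t) else 0) := by
  rw [coe_trans, transvection_transpose, Matrix.transvection, Matrix.transvection, Matrix.add_mul,
    Matrix.one_mul, Matrix.mul_add, Matrix.mul_one, Matrix.add_mul]
  by_cases ha : j = a <;> by_cases hb : j = b
  · subst ha hb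
    simp [Matrix.single_mul_single_same, add_assoc]
  · subst ha
    simp [Matrix.single_mul_single_same, Matrix.single_mul_single_of_ne _ _ _ _ (Ne.symm hb), hb, Ne.symm hb]
  · subst hb
    simp [Matrix.single_mul_single_same, Matrix.single_mul_single_of_ne _ _ _ _ ha, ha]
  · simp [Matrix.single_mul_single_of_ne _ _ _ _ ha, Matrix.single_mul_single_of_ne _ _ _ _ (Ne.symm hb), ha, hb]

theorem exists_sq_sub_sq (x : F) : ∃ a b : F, x = a ^ 2 - b ^ 2 := by
  by_cases h2 : (2 : F) = 0
  · obtain ⟨r, hr⟩ := FiniteField.isSquare_of_char_two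
      (by by_contra hc; exact Ring.two_ne_zero hc h2) x
    exact ⟨r, 0, by rw [hr]; ring⟩
  · refine ⟨(x + 1) / 2, (x - 1) / 2, ?_⟩
    field_simp
    ring


theorem levi_trans_mem {T : Subgroup Sp} (hTU : T ≤ uniU m F)
    (hcl : ∀ x : Sp, x ∈ T → ∀ g : Sp, g * x * g⁻¹ ∈ uniU m F → g * x * g⁻¹ ∈ T)
    {i j : Fin m} (hij : i < j) {y : F}
    (h : InT T (Matrix.single i j y + Matrix.single j i y)) : levi (trans hij.ne y) ∈ T := by
  obtain ⟨hS, h⟩ := h
  have hw := isSwap_swapEl j (one_ne_zero (α := F))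
  have h1 := hw.levi_comm hij.ne rfl (by simp) y hS
  have h2 := hcl _ h (swapEl j 1) (by
    rw [h1, mul_inv_cancel_right]; exact levi_mem_uniU.2 (isUni_trans hij y))
  rwa [h1, mul_inv_cancel_right] at h2

theorem inT_single_of_short {T : Subgroup Sp} (hTU : T ≤ uniU m F)
    (hcl : ∀ x : Sp, x ∈ T → ∀ g : Sp, g * x * g⁻¹ ∈ uniU m F → g * x * g⁻¹ ∈ T)
    {i j : Fin m} (hij : i < j) {y : F}
    (h : InT T (Matrix.single i j y + Matrix.single j i y)) : InT T (Matrix.single i i (y * y)) := by
  have hN := levi_trans_mem hTU hcl hij h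
  set N := trans hij.ne y
  set t : Sp := upS (Matrix.single j j 1) (single_symm j 1)
  have ht : t ∈ uniU m F := upS_mem _
  have h1 : t * (levi N)⁻¹ * t⁻¹ ∈ T :=
    hcl _ (inv_mem hN) t (mul_mem (mul_mem ht (inv_mem (hTU hN))) (inv_mem ht))
  have h2 := mul_mem hN h1
  rw [show levi N * (t * (levi N)⁻¹ * t⁻¹) = levi N * t * (levi N)⁻¹ * t⁻¹ by group,
    levi_mul_upS N, upS_inv, upS_mul] at h2
  have h3 : InT T ((N : Mm) * Matrix.single j j (1 : F) * (N : Mm)ᵀ + -Matrix.single j j 1) := ⟨_, h2⟩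
  rw [congr_trans_single, if_pos rfl, if_pos rfl, if_pos ⟨rfl, rfl⟩] at h3
  simp only [mul_one, one_mul] at h3
  convert h3.sub h using 1
  abel

theorem exists_inT_single {T : Subgroup Sp} (hTU : T ≤ uniU m F)
    (hcl : ∀ x : Sp, x ∈ T → ∀ g : Sp, g * x * g⁻¹ ∈ uniU m F → g * x * g⁻¹ ∈ T)
    (hm : 2 ≤ m) (h3 : 3 ≤ m ∨ ∃ μ : F, μ ≠ 0 ∧ μ ≠ 1)
    {p : ℕ} [Fact p.Prime] (hUp : IsPGroup p (uniU m F)) (hT : T ≠ ⊥) :
    ∃ (a : Fin m) (x : F), x ≠ 0 ∧ InT T (Matrix.single a a x) := by
  classical
  set U := uniU m F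
  haveI : (T.subgroupOf U).Normal := ⟨fun x hx g => by
    exact hcl _ hx (g : Sp) (mul_mem (mul_mem g.2 x.2) (inv_mem g.2))⟩
  have hne : T.subgroupOf U ≠ ⊥ := fun h => hT (by
    rwa [Subgroup.subgroupOf_eq_bot, disjoint_iff, inf_eq_left.2 hTU] at h)
  obtain ⟨z, hzT, hz1, hzc⟩ := CfsgLib.TwoGroups.exists_mem_center_of_normal hUp hne
  obtain ⟨B, hB, hzB, hshape, -⟩ := centre_shape hm z.2 fun u hu =>
    (congrArg Subtype.val (Subgroup.mem_center_iff.1 hzc ⟨u, hu⟩)).symm
  have hzup : (z : Sp) = upS B hB := Subtype.ext (by rw [hzB, coe_upS])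
  have hBT : InT T B := ⟨hB, hzup ▸ hzT⟩
  set i0 : Fin m := ⟨0, by omega⟩
  set i1 : Fin m := ⟨1, by omega⟩
  have h01 : i0 < i1 := Nat.zero_lt_one
  set x := B i0 i0
  set y := B i0 i1
  have hy' : B i1 i0 = y := congrFun (congrFun hB i0) i1
  have hBeq : B = Matrix.single i0 i0 x + Matrix.single i0 i1 y + Matrix.single i1 i0 y := by
    ext i j
    by_cases h00 : i = i0 ∧ j = i0
    · obtain ⟨rfl, rfl⟩ := h00; simp [Matrix.single_apply, h01.ne, h01.ne', x]
    by_cases h01' : i = i0 ∧ j = i1
    · obtain ⟨rfl, rfl⟩ := h01'; simp [Matrix.single_apply, h01.ne, h01.ne', y]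
    by_cases h10 : i = i1 ∧ j = i0
    · obtain ⟨rfl, rfl⟩ := h10; simp [Matrix.single_apply, h01.ne, h01.ne', hy']
    rw [hshape i j (fun h => h00 ⟨Fin.ext h.1, Fin.ext h.2⟩) (fun h => h01' ⟨Fin.ext h.1, Fin.ext h.2⟩)
      (fun h => h10 ⟨Fin.ext h.1, Fin.ext h.2⟩)]
    simp [Matrix.single_apply, eq_comm, h00, h01', h10]
  by_cases hy : y = 0
  · refine ⟨i0, x, fun hx => hz1 ?_, ?_⟩
    · refine Subtype.ext ?_
      have h0 : B = 0 := by rw [hBeq, hx, hy]; simp
      rw [hzup, upS_congr hB Matrix.transpose_zero h0, upS_zero]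
      rfl
    · rw [hBeq, hy] at hBT; simpa using hBT
  suffices hshort : ∃ (i j : Fin m) (_ : i < j) (c : F), c ≠ 0 ∧
      InT T (Matrix.single i j c + Matrix.single j i c) by
    obtain ⟨i, j, hij, c, hc, h⟩ := hshort
    exact ⟨i, c * c, mul_ne_zero hc hc, inT_single_of_short hTU hcl hij h⟩
  rw [hBeq] at hBT
  rcases Nat.lt_or_ge m 3 with hm3 | hm3
  · obtain ⟨μ, hμ0, hμ1⟩ := h3.resolve_left (by omega)
    refine ⟨i0, i1, h01, μ * y - y, ?_, ?_⟩
    · rw [show μ * y - y = (μ - 1) * y by ring]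
      exact mul_ne_zero (sub_ne_zero.2 hμ1) hy
    have h := (hBT.congr hcl (diagGL (Function.update 1 i1 (Units.mk0 μ hμ0)))).sub hBT
    simp only [Matrix.mul_add, Matrix.add_mul, congr_diag_single, Function.update_self,
      Function.update_of_ne h01.ne, Pi.one_apply, Units.val_one, Units.val_mk0, one_mul, mul_one] at h
    convert h using 1
    rw [mul_comm y μ]
    simp only [sub_eq_add_neg, Matrix.single_add, ← Matrix.single_neg]
    abel
  · set i2 : Fin m := ⟨2, hm3⟩
    have h12 : i1 < i2 := Nat.one_lt_two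
    have h02 : i0 < i2 := h01.trans h12
    have h := (hBT.congr hcl (trans h12.ne' (1 : F))).sub hBT
    simp only [Matrix.mul_add, Matrix.add_mul, congr_trans_single, if_neg h01.ne', if_pos rfl, one_mul,
      mul_one, if_neg (show ¬ (i1 = i0 ∧ i1 = i0) from fun h => h01.ne' h.1),
      if_neg (show ¬ (i1 = i0 ∧ i1 = i1) from fun h => h01.ne' h.1),
      if_neg (show ¬ (i1 = i1 ∧ i1 = i0) from fun h => h01.ne' h.2), add_zero] at h
    refine ⟨i0, i2, h02, y, hy, ?_⟩
    convert h using 1
    simp [h01.ne']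
    try abel

theorem inT_symm {T : Subgroup Sp} (hTU : T ≤ uniU m F)
    (hcl : ∀ x : Sp, x ∈ T → ∀ g : Sp, g * x * g⁻¹ ∈ uniU m F → g * x * g⁻¹ ∈ T)
    {a : Fin m} {x : F} (hx : x ≠ 0) (h : InT T (Matrix.single a a x)) {S : Mm}
    (hS : Sᵀ = S) : InT T S := by
  classical
  have hsq : ∀ t : F, InT T (Matrix.single a a (t ^ 2 * x)) := by
    intro t
    rcases eq_or_ne t 0 with rfl | ht
    · convert InT.zero T using 1; simp
    · have h' := h.congr hcl (diagGL (Function.update 1 a (Units.mk0 t ht)))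
      rw [congr_diag_single, Function.update_self, Units.val_mk0] at h'
      convert h' using 2; ring
  have haa : ∀ c : F, InT T (Matrix.single a a c) := by
    intro c
    obtain ⟨s, t, hst⟩ := exists_sq_sub_sq (c / x)
    convert (hsq s).sub (hsq t) using 1
    rw [sub_eq_add_neg, Matrix.single_neg, ← Matrix.single_add, ← sub_eq_add_neg, ← sub_mul, ← hst,
      div_mul_cancel₀ _ hx]
  have hdiag : ∀ b : Fin m, ∀ c : F, InT T (Matrix.single b b c) := by
    intro b c
    rcases eq_or_ne b a with rfl | hb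
    · exact haa c
    have h' := ((haa c).congr hcl (trans hb (1 : F))).congr hcl (trans (Ne.symm hb) (-1 : F))
    simp only [congr_trans_single, Matrix.mul_add, Matrix.add_mul, if_pos rfl, one_mul, mul_one,
      if_neg hb, if_neg (show ¬ (b = a ∧ b = a) from fun h => hb h.1),
      if_neg (show ¬ (b = b ∧ b = a) from fun h => hb h.2),
      if_neg (show ¬ (b = a ∧ b = b) from fun h => hb h.1), and_self, if_true, add_zero, zero_add] at h'
    convert h' using 1
    simp [hb, ← Matrix.single_neg]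
    try abel
  have hshort : ∀ i j : Fin m, i ≠ j → ∀ c : F, InT T (Matrix.single i j c + Matrix.single j i c) := by
    intro i j hij c
    have h' := (((hdiag j c).congr hcl (trans hij (1 : F))).sub (hdiag j c)).sub (hdiag i c)
    rw [congr_trans_single, if_pos rfl, if_pos rfl, if_pos ⟨rfl, rfl⟩] at h'
    simp only [one_mul, mul_one] at h'
    convert h' using 1
    abel
  let f : Fin m × Fin m → Mm := fun q =>
    if q.1 < q.2 then Matrix.single q.1 q.2 (S q.1 q.2) + Matrix.single q.2 q.1 (S q.1 q.2)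
    else if q.1 = q.2 then Matrix.single q.1 q.1 (S q.1 q.1) else 0
  have hsum : S = ∑ q, f q := by
    ext i j
    rw [Matrix.sum_apply]
    rcases lt_trichotomy i j with hij | hij | hij
    · rw [Finset.sum_eq_single (i, j)]
      · simp [f, hij, hij.ne']
      · rintro ⟨k, l⟩ _ hkl
        simp only [f]
        split_ifs with h1 h2
        · simp only [Matrix.add_apply, Matrix.single_apply]
          rw [if_neg (fun h => hkl (by rw [h.1, h.2])), if_neg, add_zero]
          rintro ⟨rfl, rfl⟩; exact h1.not_gt hij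
        · subst h2; rw [Matrix.single_apply, if_neg]; rintro ⟨rfl, rfl⟩; exact hij.false
        · rfl
      · simp
    · subst hij
      rw [Finset.sum_eq_single (i, i)]
      · simp [f]
      · rintro ⟨k, l⟩ _ hkl
        simp only [f]
        split_ifs with h1 h2
        · simp only [Matrix.add_apply, Matrix.single_apply]
          rw [if_neg, if_neg, add_zero] <;> rintro ⟨rfl, rfl⟩ <;> exact h1.false
        · subst h2; rw [Matrix.single_apply, if_neg]; rintro ⟨rfl, -⟩; exact hkl rfl
        · rfl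
      · simp
    · rw [Finset.sum_eq_single (j, i)]
      · simp [f, hij, hij.ne', show S i j = S j i from congrFun (congrFun hS j) i]
      · rintro ⟨k, l⟩ _ hkl
        simp only [f]
        split_ifs with h1 h2
        · simp only [Matrix.add_apply, Matrix.single_apply]
          rw [if_neg, if_neg (fun h => hkl (by rw [h.1, h.2])), add_zero]
          rintro ⟨rfl, rfl⟩; exact h1.not_gt hij
        · subst h2; rw [Matrix.single_apply, if_neg]; rintro ⟨rfl, rfl⟩; exact hij.false
        · rfl
      · simp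
  rw [hsum]
  refine InT.sum _ _ fun q _ => ?_
  simp only [f]
  split_ifs with h1 h2
  · exact hshort _ _ h1.ne _
  · exact hdiag _ _
  · exact InT.zero T

/-- A subgroup containing the upper transvections contains every unitriangular element. -/
theorem isUni_induction (H : Subgroup (GL (Fin m) F))
    (h : ∀ (i j : Fin m) (hij : i < j) (c : F), trans hij.ne c ∈ H) :
    ∀ A : GL (Fin m) F, IsUni (A : Mm) → A ∈ H := by
  classical
  suffices main : ∀ k : ℕ, k ≤ m → ∀ A : GL (Fin m) F, IsUni (A : Mm) →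
      (∀ i j : Fin m, k ≤ j.val → i ≠ j → (A : Mm) i j = 0) → A ∈ H by
    exact fun A hA => main m le_rfl A hA fun i j hj => absurd j.2 (by omega)
  intro k
  induction k with
  | zero =>
    intro _ A hA h0
    have : A = 1 := Units.ext (Matrix.ext fun i j => by
      rcases eq_or_ne i j with rfl | hij
      · rw [hA i i le_rfl, if_pos rfl, Units.val_one, Matrix.one_apply_eq]
      · rw [h0 i j (Nat.zero_le _) hij, Units.val_one, Matrix.one_apply_ne hij])
    rw [this]; exact one_mem H
  | succ k ih =>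
    intro hk A hA h0
    set j0 : Fin m := ⟨k, hk⟩
    -- clear the rows above `j0` in column `j0`
    suffices clear : ∀ s : Finset (Fin m), ∀ A : GL (Fin m) F, IsUni (A : Mm) →
        (∀ i j : Fin m, k + 1 ≤ j.val → i ≠ j → (A : Mm) i j = 0) →
        (∀ i, i < j0 → i ∉ s → (A : Mm) i j0 = 0) → A ∈ H by
      exact clear Finset.univ A hA h0 fun i _ hi => absurd (Finset.mem_univ i) hi
    intro s
    induction s using Finset.induction_on with
    | empty =>
      intro A hA h0 hcol
      refine ih (by omega) A hA fun i j hj hij => ?_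
      rcases Nat.lt_or_ge k j.val with h1 | h1
      · exact h0 i j h1 hij
      · obtain rfl : j = j0 := Fin.ext (show j.val = k by omega)
        rcases lt_or_gt_of_ne hij with h2 | h2
        · exact hcol i h2 (Finset.notMem_empty i)
        · rw [hA i _ h2.le, if_neg hij]
    | @insert a s has ihs =>
      intro A hA h0 hcol
      by_cases ha : a < j0
      swap
      · exact ihs A hA h0 fun i hi his => hcol i hi (by
          rw [Finset.mem_insert, not_or]; exact ⟨fun h => ha (h ▸ hi), his⟩)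
      set c := (A : Mm) a j0
      have hA' : IsUni ((trans ha.ne (-c) * A : GL (Fin m) F) : Mm) := by
        rw [Units.val_mul]; exact (isUni_trans ha (-c)).mul hA
      have hrow : ∀ i j, ((trans ha.ne (-c) * A : GL (Fin m) F) : Mm) i j =
          (A : Mm) i j + (if i = a then -c * (A : Mm) j0 j else 0) := fun i j => by
        rw [Units.val_mul, coe_trans]
        by_cases hi : i = a
        · subst hi; rw [Matrix.transvection_mul_apply_same, if_pos rfl]
        · rw [Matrix.transvection_mul_apply_of_ne (ha := hi), if_neg hi, add_zero]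
      have hmem := ihs (trans ha.ne (-c) * A) hA' (fun i j hj hij => by
          rw [hrow, h0 i j hj hij, h0 j0 j hj (fun h => by rw [← h] at hj; simp [j0] at hj)]
          simp) fun i hi his => by
        rw [hrow]
        by_cases hia : i = a
        · subst hia; rw [if_pos rfl, hA j0 j0 le_rfl, if_pos rfl]; ring
        · rw [if_neg hia, add_zero]
          exact hcol i hi (by rw [Finset.mem_insert, not_or]; exact ⟨hia, his⟩)
      have := mul_mem (inv_mem (h a j0 ha (-c))) hmem
      rwa [inv_mul_cancel_left] at this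

/-- No proper nontrivial strongly closed subgroup. -/
theorem noStronglyClosed_uniU (hm : 2 ≤ m) (h3 : 3 ≤ m ∨ ∃ μ : F, μ ≠ 0 ∧ μ ≠ 1)
    {p : ℕ} [Fact p.Prime] (hUp : IsPGroup p (uniU m F)) :
    CfsgLib.FusionSub.NoStronglyClosed (uniU m F) := by
  intro T hTU hcl
  by_cases hT : T = ⊥
  · exact Or.inl hT
  refine Or.inr (le_antisymm hTU fun u hu => ?_)
  obtain ⟨a, x, hx, hxT⟩ := exists_inT_single hTU hcl hm h3 hUp hT
  have hall : ∀ {S : Mm}, Sᵀ = S → InT T S := fun hS => inT_symm hTU hcl hx hxT hS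
  obtain ⟨A, S, hS, hA, rfl⟩ := mem_uniU_iff.1 hu
  obtain ⟨hS', hST⟩ := hall hS
  refine mul_mem ?_ hST
  exact isUni_induction (T.comap levi) (fun i j hij c => levi_trans_mem hTU hcl hij (hall (short_symm i j c))) A hA

end CfsgLib.FusionSub.Symp
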